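import Mathlib
import Cfsg.Agent.Lib.Basic.PCore
import Cfsg.Agent.Lib.Components.Fitting

/-!
A solvable group in which `r`-elements centralise `O_q` for all primes `q ≠ r` is nilpotent.
-/

set_option autoImplicit false
set_option linter.unusedSectionVars false
set_option linter.style.haveILetI false

namespace Cfsg.Agent.Lib.Ward

open Cfsg Cfsg.Agent.Lib.Basic.PCore Cfsg.Agent.Lib.Components.Fitting

universe u

variable {H : Type u} [Group H] [Finite H]

/-- Elements centralising `O_q` for all primes `q ≠ r`. -/
def centOff (H : Type u) [Group H] (r : ℕ) : Subgroup H where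
  carrier := {n | ∀ q : ℕ, q.Prime → q ≠ r → ∀ y ∈ pCore q H, n * y = y * n}
  mul_mem' := by
    intro a b ha hb q hq hqr y hy
    rw [mul_assoc, hb q hq hqr y hy, ← mul_assoc, ha q hq hqr y hy, mul_assoc]
  one_mem' := by
    intro q _ _ y _
    simp
  inv_mem' := by
    intro a ha q hq hqr y hy
    have := ha q hq hqr y hy
    exact (Commute.inv_left (show Commute a y from this)).eq

theorem mem_centOff {r : ℕ} {n : H} :
    n ∈ centOff H r ↔ ∀ q : ℕ, q.Prime → q ≠ r → ∀ y ∈ pCore q H, n * y = y * n := Iff.rfl

instance centOff_normal (r : ℕ) : (centOff H r).Normal := by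
  constructor
  intro n hn g q hq hqr y hy
  have hy' : g⁻¹ * y * g ∈ pCore q H := by
    have := (pCore_normal q H).conj_mem y hy g⁻¹
    simpa using this
  have h := hn q hq hqr _ hy'
  calc g * n * g⁻¹ * y = g * (n * (g⁻¹ * y * g)) * g⁻¹ := by group
    _ = g * ((g⁻¹ * y * g) * n) * g⁻¹ := by rw [h]
    _ = y * (g * n * g⁻¹) := by group

/-- The pure group theory behind the final step. -/
theorem isNilpotent_of_centralize_pCore (hsolv : Group.IsSolvable H)
    (hc : ∀ q r : ℕ, q.Prime → r.Prime → q ≠ r → ∀ x : H, (∃ s, orderOf x = r ^ s) →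
      ∀ y ∈ pCore q H, x * y = y * x) : Group.IsNilpotent H := by
  classical
  set F := fittingSubgroup H with hF
  have hFnil : Group.IsNilpotent F := fittingSubgroup_isNilpotent
  have hCF : Subgroup.centralizer (F : Set H) ≤ F := by
    refine le_fitting_of_solvable_of_le_centralizer _ le_rfl Subgroup.le_normalizer ?_
    exact Group.isSolvable_of_isSolvable_injective (f := (Subgroup.centralizer (F : Set H)).subtype)
      (Subgroup.subtype_injective _)
  -- Claim A
  have hA : ∀ r q s : ℕ, q.Prime → q ≠ r → ∀ y ∈ centOff H r, orderOf y = q ^ s →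
      ∀ n ∈ centOff H r, n * y = y * n := by
    intro r q s hq hqr y hy hord n hn
    have hyF : y ∈ F := by
      apply hCF
      rw [Subgroup.mem_centralizer_iff]
      intro z hz
      have hle : F ≤ Subgroup.centralizer ({y} : Set H) := by
        rw [hF, fittingSubgroup_eq_iSup_pCore]
        refine iSup_le fun q' => ?_
        have hq' : (q' : ℕ).Prime := Nat.prime_of_mem_primeFactors q'.2
        intro z hz
        rw [Subgroup.mem_centralizer_singleton_iff]
        by_cases hqq : (q' : ℕ) = q
        · rw [hqq] at hz
          exact (hy q hq hqr z hz).symm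
        · exact (hc q' q hq' hq hqq y ⟨s, hord⟩ z hz).symm
      have := hle hz
      rw [Subgroup.mem_centralizer_singleton_iff] at this
      exact this
    have hyO : y ∈ pCore q H := mem_pCore_of_normal_nilpotent inferInstance hFnil hyF hq hord
    exact hn q hq hqr y hyO
  -- Claim B
  have hB : ∀ r : ℕ, r.Prime → ∀ x ∈ centOff H r, (orderOf x).Coprime r →
      ∀ n ∈ centOff H r, n * x = x * n := by
    intro r hr x hx hcop n hn
    have hle : Subgroup.zpowers x ≤ Subgroup.centralizer ({n} : Set H) := by
      refine le_of_prime_power_mem ?_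
      intro z hz q s hq hord
      rw [Subgroup.mem_centralizer_singleton_iff]
      have hzN : z ∈ centOff H r := (Subgroup.zpowers_le.mpr hx) hz
      by_cases hs : s = 0
      · subst hs
        have : z = 1 := by simpa using hord
        rw [this, one_mul, mul_one]
      have hqr : q ≠ r := by
        rintro rfl
        have h1 : orderOf z ∣ orderOf x := orderOf_dvd_of_mem_zpowers hz
        have h2 : q ∣ orderOf z := by rw [hord]; exact dvd_pow_self q hs
        have h3 := Nat.Coprime.coprime_dvd_left (h2.trans h1) hcop
        exact hq.one_lt.ne' (by simpa using h3)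
      exact (hA r q s hq hqr z hzN hord n hn).symm
    have := hle (Subgroup.mem_zpowers x)
    rw [Subgroup.mem_centralizer_singleton_iff] at this
    exact this.symm
  -- Claim C
  have hCnil : ∀ r : ℕ, r.Prime → Group.IsNilpotent (centOff H r) := by
    intro r hr
    haveI : Fact r.Prime := ⟨hr⟩
    have hp : IsPGroup r (centOff H r ⧸ Subgroup.center (centOff H r)) := by
      intro g
      obtain ⟨n, rfl⟩ := QuotientGroup.mk_surjective g
      obtain ⟨e, m, hm, hnm⟩ := Nat.exists_eq_pow_mul_and_not_dvd (n := orderOf n) (orderOf_pos n).ne' r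
        hr.ne_one
      refine ⟨e, ?_⟩
      rw [← QuotientGroup.mk_pow, QuotientGroup.eq_one_iff, Subgroup.mem_center_iff]
      intro n'
      set z : H := ((n ^ r ^ e : centOff H r) : H) with hz
      have hzN : z ∈ centOff H r := (n ^ r ^ e).2
      have hord : (orderOf z).Coprime r := by
        have h1 : z ^ m = 1 := by
          have := pow_orderOf_eq_one n
          rw [hnm, pow_mul] at this
          have h2 := congrArg Subtype.val this
          simpa [hz] using h2
        have h2 : orderOf z ∣ m := orderOf_dvd_of_pow_eq_one h1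
        refine Nat.Coprime.coprime_dvd_left h2 ?_
        exact Nat.Coprime.symm ((Nat.Prime.coprime_iff_not_dvd hr).mpr hm)
      exact Subtype.ext (hB r hr z hzN hord n'.1 n'.2)
    have := hp.isNilpotent
    exact Group.of_quotient_center_nilpotent this
  have htop : F = ⊤ := by
    rw [eq_top_iff]
    refine le_of_prime_power_mem ?_
    intro x _ r s hr hord
    have hxC : x ∈ centOff H r := fun q hq hqr y hy => hc q r hq hr hqr x ⟨s, hord⟩ y hy
    have hle : centOff H r ≤ F := le_fittingSubgroup inferInstance (hCnil r hr)
    exact hle hxC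
  rw [htop] at hFnil
  exact Group.isNilpotent_top.mp hFnil

end Cfsg.Agent.Lib.Ward
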