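import Mathlib
import Cfsg.Agent.Lib.Ward.Steps
import Cfsg.Agent.Lib.Ward.Pure
import Cfsg.Agent.Lib.Basic.SylowUtil
import Cfsg.Agent.Lib.Coprime.InvSylow

/-!
# The faithful form of the key step of Ward's theorem

If `G` acts faithfully on `W`, with `C_W(A) = 0` and `O_ℓ(G) = 1` where `ℓ` is the characteristic,
then `G` is nilpotent.
-/

set_option autoImplicit false
set_option linter.unusedSectionVars false
set_option linter.style.haveILetI false
set_option linter.dupNamespace false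
set_option linter.unusedVariables false

namespace Cfsg.Agent.Lib.Ward

open Cfsg Cfsg.Agent.Lib.Basic.PCore Cfsg.Agent.Lib.Basic.SylowUtil Cfsg.Agent.Lib.Coprime
open scoped Pointwise

universe u

variable {X : Type u} [Group X] [Finite X] {k : Type*} [Field k] {W : Type*} [AddCommGroup W]
  [Module k W] {ρ : X →* Module.End k W} {A G : Subgroup X} {p : ℕ}
  [IsAlgClosed k] [FiniteDimensional k W]

theorem Ward.main_nilp (hW : Ward A G p) (hGn : G.Normal) {l : ℕ} (hl : l.Prime) [CharP k l]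
    (hA0 : ∀ w : W, (∀ a ∈ A, ρ a w = w) → w = 0)
    (hfaith : ∀ g ∈ G, (∀ w, ρ g w = w) → g = 1)
    (hO : ∀ P : Subgroup X, P.Normal → P ≤ G → IsPGroup l P → P = ⊥) : Group.IsNilpotent G := by
  classical
  refine isNilpotent_of_centralize_pCore hW.solv ?_
  intro q r hq hr hqr x hord y hy
  haveI : Fact q.Prime := ⟨hq⟩
  haveI : Fact r.Prime := ⟨hr⟩
  haveI : G.Normal := hGn
  set Q : Subgroup X := (pCore q G).map G.subtype with hQdef
  have hQn : Q.Normal := by
    haveI : (pCore q G).Characteristic := pCore_char q G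
    exact map_subtype_normal_of_characteristic _
  have hQG : Q ≤ G := by
    rintro _ ⟨z, _, rfl⟩
    exact z.2
  have hQp : IsPGroup q Q := (pCore_isPGroup q).map _
  have hyQ : (y : X) ∈ Q := ⟨y, hy, rfl⟩
  by_cases hql : q = l
  · subst hql
    have := hO Q hQn hQG hQp
    rw [this, Subgroup.mem_bot] at hyQ
    have hy1 : y = 1 := Subtype.ext hyQ
    rw [hy1, mul_one, one_mul]
  have hQk : (Nat.card Q : k) ≠ 0 := by
    obtain ⟨n, hn⟩ := IsPGroup.iff_card.mp hQp
    rw [hn]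
    intro h
    have h1 := (CharP.cast_eq_zero_iff k l _).mp (by exact_mod_cast h)
    have h2 := hl.dvd_of_dvd_pow h1
    exact hql ((Nat.prime_dvd_prime_iff_eq hl hq).mp h2).symm
  have hQnil : Group.IsNilpotent Q := hQp.isNilpotent
  have hnormQ : ∀ {S : Subgroup X}, S ≤ Subgroup.normalizer (Q : Set X) := by
    intro S g _
    exact mem_norm_of_conj (fun x hx => hQn.conj_mem x hx g) (fun x hx => by
      simpa using hQn.conj_mem x hx g⁻¹)
  obtain ⟨P, hP⟩ := InvSylow.exists_invariant_sylow hW.norm (hW.coprime le_rfl) (Or.inl hW.solvA) r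
  set R : Subgroup X := (P : Subgroup G).map G.subtype with hRdef
  have hRG : R ≤ G := by
    rintro _ ⟨z, _, rfl⟩
    exact z.2
  have hRp : IsPGroup r R := P.2.map _
  have hcop : (Nat.card Q).Coprime (Nat.card R) := IsPGroup.coprime_card_of_ne q r hqr Q R hQp hRp
  have hstep := hW.nilpotent_step (ρ := ρ) hA0 hQG hRG hnormQ hP hnormQ hQnil hcop hQk
    _ (⊤ : Submodule k W) rfl (fun _ _ _ _ => trivial) (fun _ _ _ _ => trivial)
    (fun _ _ _ _ => trivial)
  have hcomm : ∀ r' ∈ R, ∀ q' ∈ Q, r'⁻¹ * q' * r' = q' := by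
    intro r' hr' q' hq'
    have h1 : r'⁻¹ * q' * r' ∈ Q := by
      have := hQn.conj_mem q' hq' r'⁻¹
      simpa using this
    have h2 : (r'⁻¹ * q' * r') * q'⁻¹ = 1 := by
      refine hfaith _ (hQG (Q.mul_mem h1 (Q.inv_mem hq'))) ?_
      intro w
      rw [rho_mul_apply, hstep r' hr' q' hq' _ trivial, rho_apply_inv]
    exact mul_inv_eq_one.mp h2
  -- `x` is conjugate into `R`
  obtain ⟨s, hs⟩ := hord
  obtain ⟨P', hxP'⟩ := exists_sylow_of_orderOf (p := r) hs
  obtain ⟨g, hg⟩ := exists_conj_smul_eq (P : Sylow r G) P'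
  have hxg : x ∈ MulAut.conj g • (P : Subgroup G) := by
    rw [hg]
    exact hxP'
  rw [Subgroup.mem_pointwise_smul_iff_inv_smul_mem] at hxg
  have hz : (g⁻¹ * x * g) ∈ (P : Subgroup G) := by
    have : (MulAut.conj g)⁻¹ • x = g⁻¹ * x * g := by
      rw [MulAut.smul_def, ← map_inv]
      simp
    rwa [this] at hxg
  have hzR : ((g⁻¹ * x * g : G) : X) ∈ R := ⟨_, hz, rfl⟩
  have hy' : ((g⁻¹ * y * g : G) : X) ∈ Q := by
    have h1 : g⁻¹ * y * g ∈ pCore q G := by
      have := (pCore_normal q G).conj_mem y hy g⁻¹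
      simpa using this
    exact ⟨_, h1, rfl⟩
  have h3 := hcomm _ hzR _ hy'
  apply Subtype.ext
  simp only [Subgroup.coe_mul, Subgroup.coe_inv] at h3 ⊢
  -- unwinding
  have h4 : ((x : X))⁻¹ * (y : X) * x = y := by
    have e : ((g : X)⁻¹ * (x : X) * (g : X))⁻¹ * ((g : X)⁻¹ * (y : X) * (g : X)) *
        ((g : X)⁻¹ * (x : X) * (g : X)) = (g : X)⁻¹ * ((x : X)⁻¹ * (y : X) * (x : X)) * (g : X) := by
      group
    rw [e] at h3
    have h5 : (g : X) * ((g : X)⁻¹ * ((x : X)⁻¹ * (y : X) * (x : X)) * (g : X)) * (g : X)⁻¹ =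
        (g : X) * ((g : X)⁻¹ * (y : X) * (g : X)) * (g : X)⁻¹ := by rw [h3]
    have e1 : (g : X) * ((g : X)⁻¹ * ((x : X)⁻¹ * (y : X) * (x : X)) * (g : X)) * (g : X)⁻¹ =
        (x : X)⁻¹ * (y : X) * (x : X) := by group
    have e2 : (g : X) * ((g : X)⁻¹ * (y : X) * (g : X)) * (g : X)⁻¹ = (y : X) := by group
    rwa [e1, e2] at h5
  rw [mul_assoc, inv_mul_eq_iff_eq_mul] at h4
  exact h4.symm

end Cfsg.Agent.Lib.Ward
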