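import Mathlib
import Cfsg.Agent.Lib.Ward.Faithful
import Cfsg.Agent.Lib.Ward.Dual
import Cfsg.Agent.Lib.Components.Fitting

/-!
# Ward's theorem: `G` has a normal nilpotent subgroup with nilpotent quotient
-/

set_option autoImplicit false
set_option linter.unusedSectionVars false
set_option linter.style.haveILetI false
set_option linter.dupNamespace false
set_option linter.unusedVariables false

namespace Cfsg.Agent.Lib.Ward

universe u

section key

variable {X : Type u} [Group X] [Finite X] {A G : Subgroup X} {p : ℕ}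

/-- The main step: a minimal normal subgroup `V` of `X` in `G` is centralised by a term of the
lower central series of `G`. -/
theorem Ward.key_quotient (hW : Ward A G p) (hGn : G.Normal) {V : Subgroup X} [hVn : V.Normal]
    (hVG : V ≤ G) (hV1 : V ≠ ⊥)
    (hmin : ∀ V' : Subgroup X, V'.Normal → V' ≤ V → V' ≠ ⊥ → V' = V)
    (hab : ∀ x ∈ V, ∀ y ∈ V, x * y = y * x) {l : ℕ} (hl : l.Prime) (hexp : ∀ v ∈ V, v ^ l = 1) :
    ∃ m, G.lowerCentralSeries m ≤ G ⊓ Subgroup.centralizer (V : Set X) := by
  classical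
  haveI : Fact l.Prime := ⟨hl⟩
  set C : Subgroup X := G ⊓ Subgroup.centralizer (V : Set X) with hC
  haveI hCn : C.Normal := by
    haveI := hGn
    exact Subgroup.normal_inf_normal _ _
  have hCG : C ≤ G := inf_le_left
  have hW' := hW.map (M := C) hCG
  set π : X →* X ⧸ C := QuotientGroup.mk' C with hπ
  have hπsurj : Function.Surjective π := QuotientGroup.mk'_surjective C
  have hπker : ∀ x, π x = 1 ↔ x ∈ C := fun x => QuotientGroup.eq_one_iff x
  let k := AlgebraicClosure (ZMod l)
  let φ₀ : X →* MulAut V := MulAut.conjNormal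
  have hφ₀ : ∀ (x : X) (v : V), ((φ₀ x v : V) : X) = x * v * x⁻¹ := fun x v =>
    MulAut.conjNormal_apply x v
  have hφ₀C : ∀ c ∈ C, φ₀ c = 1 := by
    intro c hc
    ext v
    rw [hφ₀]
    have h1 := Subgroup.mem_centralizer_iff.mp hc.2 v v.2
    rw [← h1, mul_assoc, mul_inv_cancel, mul_one]
    rfl
  let φ : X ⧸ C →* MulAut V := QuotientGroup.lift C φ₀ hφ₀C
  have hφ : ∀ (x : X) (v : V), ((φ (π x) v : V) : X) = x * v * x⁻¹ := fun x v => hφ₀ x v
  let ρ : X ⧸ C →* Module.End k (addFun V k) := dualRep φ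
  have hVcomm : ∀ x y : V, x * y = y * x := fun x y => Subtype.ext (hab x x.2 y y.2)
  have hVexp : ∀ v : V, v ^ l = 1 := fun v => Subtype.ext (by simpa using hexp v v.2)
  -- `l` divides `|V|` and `|G|`
  have hlV : l ∣ Nat.card V := by
    obtain ⟨⟨v, hv⟩, hv1⟩ := Subgroup.ne_bot_iff_exists_ne_one.mp hV1
    have hord : orderOf (⟨v, hv⟩ : V) = l := orderOf_eq_prime (hVexp _) hv1
    rw [← hord]
    exact orderOf_dvd_natCard _
  have hlG : l ∣ Nat.card G := hlV.trans (Subgroup.card_dvd_of_le hVG)
  have hlp : l ≠ p := by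
    rintro rfl
    exact hW.cop hlG
  have hA0 : ∀ w : addFun V k, (∀ a ∈ A.map π, ρ a w = w) → w = 0 := by
    intro w hw
    refine dualRep_fix_zero hVcomm φ ?_ ?_ w hw
    · intro v hv
      have hv' : (v : X) = 1 := by
        refine hW.fpf v (hVG v.2) fun a ha => ?_
        rw [← hφ, hv _ ⟨a, ha, rfl⟩]
      exact Subtype.ext hv'
    · rw [hW'.card]
      intro h
      have h1 : (p ^ 2 : ℕ) = (0 : k) := by exact_mod_cast h
      have h2 := (CharP.cast_eq_zero_iff k l _).mp h1
      exact hlp ((Nat.prime_dvd_prime_iff_eq hl hW.prime).mp (hl.dvd_of_dvd_pow h2))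
  have hfaith : ∀ g ∈ G.map π, (∀ w, ρ g w = w) → g = 1 := by
    rintro _ ⟨g, hg, rfl⟩ hw
    have h1 := dualRep_faithful (k := k) hVcomm hl hVexp φ (x := π g) hw
    refine (hπker g).mpr ⟨hg, ?_⟩
    show g ∈ Subgroup.centralizer (V : Set X)
    rw [Subgroup.mem_centralizer_iff]
    intro v hv
    have h2 := congrArg Subtype.val (h1 ⟨v, hv⟩)
    rw [hφ] at h2
    simp only at h2
    rw [mul_inv_eq_iff_eq_mul] at h2
    exact h2.symm
  have hO : ∀ P : Subgroup (X ⧸ C), P.Normal → P ≤ G.map π → IsPGroup l P → P = ⊥ := by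
    intro P hPn hPG hPl
    letI instA : MulAction P V := MulAction.compHom V (φ.comp P.subtype)
    have hsm : ∀ (g : P) (v : V), g • v = φ g v := fun g v => rfl
    have hcard := hPl.card_modEq_card_fixedPoints V
    have hdvd : l ∣ Nat.card (MulAction.fixedPoints P V) := by
      have h0 : Nat.card V ≡ 0 [MOD l] := (Nat.modEq_zero_iff_dvd).mpr hlV
      exact (Nat.modEq_zero_iff_dvd).mp (hcard.symm.trans h0)
    have hex : ∃ v : V, v ≠ 1 ∧ ∀ g ∈ P, φ g v = v := by
      by_contra hcon
      push Not at hcon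
      have hsub : Subsingleton (MulAction.fixedPoints P V) := by
        constructor
        rintro ⟨a, ha⟩ ⟨b, hb⟩
        have hall : ∀ v ∈ MulAction.fixedPoints P V, v = 1 := by
          intro v hv
          by_contra hv1
          obtain ⟨g, hg, hg2⟩ := hcon v hv1
          exact hg2 (hv ⟨g, hg⟩)
        exact Subtype.ext ((hall a ha).trans (hall b hb).symm)
      haveI : Nonempty (MulAction.fixedPoints P V) := ⟨⟨1, fun g => by
        rw [hsm, map_one]⟩⟩
      rw [Nat.card_unique] at hdvd
      exact hl.one_lt.ne' (Nat.dvd_one.mp hdvd)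
    obtain ⟨v₀, hv₀1, hv₀⟩ := hex
    set P' : Subgroup X := P.comap π with hP'
    haveI hP'n : P'.Normal := hPn.comap π
    set V₁ : Subgroup X := V ⊓ Subgroup.centralizer (P' : Set X) with hV₁
    have hV₁n : V₁.Normal := Subgroup.normal_inf_normal _ _
    have hv₀V₁ : (v₀ : X) ∈ V₁ := by
      refine ⟨v₀.2, ?_⟩
      show (v₀ : X) ∈ Subgroup.centralizer (P' : Set X)
      rw [Subgroup.mem_centralizer_iff]
      intro y hy
      have h2 := congrArg Subtype.val (hv₀ (π y) hy)
      rw [hφ, mul_inv_eq_iff_eq_mul] at h2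
      exact h2
    have hV₁ne : V₁ ≠ ⊥ := by
      intro h
      rw [h, Subgroup.mem_bot] at hv₀V₁
      exact hv₀1 (Subtype.ext hv₀V₁)
    have hV₁eq : V₁ = V := hmin V₁ hV₁n inf_le_left hV₁ne
    have hP'C : P' ≤ C := by
      intro y hy
      have hyG : y ∈ G := by
        obtain ⟨g, hg, hgy⟩ := hPG hy
        have h1 : g⁻¹ * y ∈ C := by
          refine (hπker _).mp ?_
          rw [map_mul, map_inv, hgy, inv_mul_cancel]
        have h2 := G.mul_mem hg (hCG h1)
        simpa using h2
      refine ⟨hyG, ?_⟩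
      show y ∈ Subgroup.centralizer (V : Set X)
      rw [Subgroup.mem_centralizer_iff]
      intro v hv
      have hv' : v ∈ V₁ := hV₁eq ▸ hv
      exact (Subgroup.mem_centralizer_iff.mp hv'.2 y hy).symm
    rw [eq_bot_iff]
    intro g hg
    obtain ⟨y, rfl⟩ := hπsurj g
    exact (Subgroup.mem_bot).mpr ((hπker y).mpr (hP'C hg))
  have hGn' : (G.map π).Normal := by
    haveI := hGn
    exact Subgroup.Normal.map hGn π hπsurj
  have hnil : Group.IsNilpotent (G.map π) := by
    haveI : FiniteDimensional k (addFun V k) := inferInstance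
    exact hW'.main_nilp (ρ := ρ) hGn' hl hA0 hfaith hO
  obtain ⟨n, hn⟩ := (Subgroup.isNilpotent_iff_lowerCentralSeries _).mp hnil
  refine ⟨n, ?_⟩
  rw [← Subgroup.map_lowerCentralSeries] at hn
  intro x hx
  have : π x ∈ (G.lowerCentralSeries n).map π := ⟨x, hx, rfl⟩
  rw [hn, Subgroup.mem_bot] at this
  exact (hπker x).mp this

end key

/-- **Ward's theorem**, ambient form. -/
theorem ward_main : ∀ (n : ℕ) (X : Type u) [Group X] [Finite X] (A G : Subgroup X) (p : ℕ),
    Ward A G p → G.Normal → Nat.card G = n →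
    ∃ N : Subgroup X, N.Normal ∧ N ≤ G ∧ Group.IsNilpotent N ∧ ∃ m, G.lowerCentralSeries m ≤ N := by
  intro n
  induction n using Nat.strong_induction_on with
  | _ n ih =>
    intro X _ _ A G p hW hGn hn
    classical
    haveI := hGn
    by_cases hG1 : G = ⊥
    · refine ⟨⊥, inferInstance, bot_le, ?_, 0, by simp [hG1]⟩
      exact (Subgroup.isNilpotent_iff_lowerCentralSeries _).mpr ⟨0, rfl⟩
    -- a minimal normal subgroup
    let S : Set (Subgroup X) := {V | V.Normal ∧ V ≤ G ∧ V ≠ ⊥}
    have hS : S.Nonempty := ⟨G, hGn, le_rfl, hG1⟩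
    obtain ⟨V, ⟨hVn, hVG, hV1⟩, hVmin⟩ := wellFounded_lt.has_min S hS
    haveI := hVn
    have hmin : ∀ V' : Subgroup X, V'.Normal → V' ≤ V → V' ≠ ⊥ → V' = V := by
      intro V' h1 h2 h3
      by_contra hne
      exact hVmin V' ⟨h1, h2.trans hVG, h3⟩ (lt_of_le_of_ne h2 hne)
    haveI hGsolv := hW.solv
    have hVsolv : Group.IsSolvable V :=
      Group.isSolvable_of_isSolvable_injective (f := Subgroup.inclusion hVG)
        (Subgroup.inclusion_injective hVG)
    -- `V` is abelian
    have hcomm : ⁅V, V⁆ = ⊥ := by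
      by_contra hne
      have h1 : ⁅V, V⁆ ≤ V := Subgroup.commutator_le_left V V
      have h2 := hmin _ inferInstance h1 hne
      have h3 := Cfsg.Agent.Lib.Components.Fitting.commutator_lt_of_solvable hV1 hVsolv
      exact h3.ne h2
    have hab : ∀ x ∈ V, ∀ y ∈ V, x * y = y * x := by
      intro x hx y hy
      have := Subgroup.commutator_mem_commutator hx hy
      rw [hcomm, Subgroup.mem_bot] at this
      exact commutatorElement_eq_one_iff_mul_comm.mp this
    -- `V` is elementary abelian
    have hcardV : Nat.card V ≠ 1 := by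
      intro h
      exact hV1 (Subgroup.eq_bot_of_card_eq V h)
    obtain ⟨l, hl, hlV⟩ := Nat.exists_prime_and_dvd hcardV
    haveI : Fact l.Prime := ⟨hl⟩
    have hexp : ∀ v ∈ V, v ^ l = 1 := by
      let Ω : Subgroup X :=
        { carrier := {v | v ∈ V ∧ v ^ l = 1}
          mul_mem' := by
            rintro x y ⟨hx, hx2⟩ ⟨hy, hy2⟩
            refine ⟨V.mul_mem hx hy, ?_⟩
            rw [(show Commute x y from hab x hx y hy).mul_pow, hx2, hy2, one_mul]
          one_mem' := ⟨V.one_mem, one_pow _⟩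
          inv_mem' := by
            rintro x ⟨hx, hx2⟩
            exact ⟨V.inv_mem hx, by rw [inv_pow, hx2, inv_one]⟩ }
      have hΩn : Ω.Normal := by
        constructor
        rintro x ⟨hx, hx2⟩ g
        refine ⟨hVn.conj_mem x hx g, ?_⟩
        rw [conj_pow, hx2]
        simp
      have hΩne : Ω ≠ ⊥ := by
        obtain ⟨v, hv⟩ := exists_prime_orderOf_dvd_card' l hlV
        intro h
        have h1 : ((v : V) : X) ∈ Ω := ⟨v.2, by
          have := pow_orderOf_eq_one v
          rw [hv] at this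
          simpa using congrArg Subtype.val this⟩
        rw [h, Subgroup.mem_bot] at h1
        have h2 : v = 1 := Subtype.ext h1
        rw [h2, orderOf_one] at hv
        exact hl.one_lt.ne hv
      have hΩeq := hmin Ω hΩn (fun x hx => hx.1) hΩne
      intro v hv
      have : v ∈ Ω := hΩeq ▸ hv
      exact this.2
    -- pass to the quotient by `V`
    have hW' := hW.map (M := V) hVG
    set π : X →* X ⧸ V := QuotientGroup.mk' V with hπ
    have hπsurj : Function.Surjective π := QuotientGroup.mk'_surjective V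
    have hπker : ∀ x, π x = 1 ↔ x ∈ V := fun x => QuotientGroup.eq_one_iff x
    have hGn' : (G.map π).Normal := Subgroup.Normal.map hGn π hπsurj
    have hlt : Nat.card (G.map π) < n := by
      rw [← hn]
      refine lt_of_le_of_ne (Nat.le_of_dvd Nat.card_pos (Subgroup.card_map_dvd _ _)) ?_
      intro heq
      have hsurj := π.subgroupMap_surjective G
      have hbij := (Nat.bijective_iff_surjective_and_card (π.subgroupMap G)).mpr ⟨hsurj, heq.symm⟩
      obtain ⟨⟨v, hv⟩, hv1⟩ := Subgroup.ne_bot_iff_exists_ne_one.mp hV1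
      have h1 : π.subgroupMap G ⟨v, hVG hv⟩ = π.subgroupMap G 1 := by
        rw [map_one]
        exact Subtype.ext ((hπker v).mpr hv)
      have h2 := hbij.1 h1
      have h3 : v = 1 := congrArg Subtype.val h2
      exact hv1 (Subtype.ext h3)
    obtain ⟨Nb, hNbn, hNbG, hNbnil, m, hm⟩ := ih _ hlt (X ⧸ V) _ _ p hW' hGn' rfl
    set N₁ : Subgroup X := Nb.comap π with hN₁
    haveI hN₁n : N₁.Normal := hNbn.comap π
    have hN₁G : N₁ ≤ G := by
      intro y hy
      obtain ⟨g, hg, hgy⟩ := hNbG hy
      have h1 : g⁻¹ * y ∈ V := by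
        refine (hπker _).mp ?_
        rw [map_mul, map_inv, hgy, inv_mul_cancel]
      have h2 := G.mul_mem hg (hVG h1)
      simpa using h2
    have hmG : G.lowerCentralSeries m ≤ N₁ := by
      rw [hN₁, ← Subgroup.map_le_iff_le_comap, Subgroup.map_lowerCentralSeries]
      exact hm
    obtain ⟨t, ht⟩ := (Subgroup.isNilpotent_iff_lowerCentralSeries _).mp hNbnil
    have htV : N₁.lowerCentralSeries t ≤ V := by
      intro y hy
      have h1 : π y ∈ (N₁.lowerCentralSeries t).map π := ⟨y, hy, rfl⟩
      rw [Subgroup.map_lowerCentralSeries] at h1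
      have h2 : N₁.map π ≤ Nb := Subgroup.map_comap_le _ _
      have h3 : π y ∈ Nb.lowerCentralSeries t := Subgroup.lowerCentralSeries_mono t h2 h1
      rw [ht, Subgroup.mem_bot] at h3
      exact (hπker y).mp h3
    obtain ⟨s, hs⟩ := hW.key_quotient hGn hVG hV1 hmin hab hl hexp
    set C : Subgroup X := G ⊓ Subgroup.centralizer (V : Set X) with hC
    haveI hCn : C.Normal := Subgroup.normal_inf_normal _ _
    refine ⟨N₁ ⊓ C, Subgroup.normal_inf_normal _ _, inf_le_left.trans hN₁G, ?_, max m s, ?_⟩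
    · rw [Subgroup.isNilpotent_iff_lowerCentralSeries]
      refine ⟨t + 1, ?_⟩
      rw [Subgroup.lowerCentralSeries_succ, eq_bot_iff, Subgroup.commutator_le]
      intro x hx y hy
      have hxV : x ∈ V := htV (Subgroup.lowerCentralSeries_mono t inf_le_left hx)
      have hyC : y ∈ C := hy.2
      have h1 := Subgroup.mem_centralizer_iff.mp hyC.2 x hxV
      rw [Subgroup.mem_bot]
      exact commutatorElement_eq_one_iff_mul_comm.mpr h1
    · refine le_inf ?_ ?_
      · exact (Subgroup.lowerCentralSeries_antitone G (le_max_left m s)).trans hmG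
      · exact (Subgroup.lowerCentralSeries_antitone G (le_max_right m s)).trans hs

end Cfsg.Agent.Lib.Ward
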